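import Cfsg.Agent.H169.RG.Toral
import Cfsg.Agent.H129.TorusChar

/-!
# The order of `s` from the span clause (helper385; S3509, row `³D₄(q)`, box T4)
-/

set_option autoImplicit false
set_option linter.unusedSectionVars false

namespace Cfsg.Agent.H385.TD

open CoxeterSystem Cfsg Cfsg.Lie Cfsg.Lie.ChevalleyDatum
open Cfsg.Agent.ChevalleyStructure.CoxeterGeomTypes Cfsg.Agent.Nodes Cfsg.Agent.Nodes.RGDChev
open Cfsg.Agent.KFacts.RgdField Cfsg.Agent.KFacts.RgdChevCoord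
open Cfsg.Agent.BpExc Cfsg.Agent.BpExc.TorCent Cfsg.Agent.BpExc.Pair Cfsg.Agent.BpExc.LangFr Cfsg.Agent.H469.Exc
open Cfsg.Agent.H316.U6 Cfsg.Agent.H169.RG Cfsg.Agent.H129.TorusChar
open Cfsg.Agent.ChevalleyStructure Cfsg.Agent.Tits.Roots Cfsg.Agent.ChevalleyStructure.CoxeterGeom

universe v

variable {D : ChevalleyDatum} {l : ℕ} {M : CoxeterMatrix (Fin l)} {hp : IsType D l M} {r q : ℕ} [hr : Fact r.Prime]
  {K₀ : Type v} [Group K₀] {m : MData hp r q K₀} {s : ↥(D.group (KK r))} (f : TorForm m s)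

theorem chi_th {t₁ : ↥(D.group (KK r))} (ht : t₁ ∈ TT D (KK r)) (hα : f.α t₁ = t₁) (x : Fin l → ℤ) :
    cX hp t₁ (f.θ x) = cX hp t₁ x ^ q := by
  have h1 := cX_sigma hp M.toCoxeterSystem f.frob f.fr ht x
  have h2 : (MulAut.conj f.n * m.σ) t₁ = t₁ := hα
  rw [h2, m.hq] at h1
  exact h1

/-- **`s ^ (q² - 1) = 1`** if `θ² - 1` maps into the span of a `θ`-orbit of roots trivial on `t` -/
theorem pow_sq_sub_one {b : Fin l → ℤ} (hb : b ∈ Sx M.toCoxeterSystem hp.isCartan (ch hp) f.t)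
    (hspan : ∀ v, ∃ c₀ c₁ c₂ : ℤ, f.θ (f.θ v) - v = c₀ • b + c₁ • f.θ b + c₂ • f.θ (f.θ b)) :
    s ^ (q ^ 2 - 1) = 1 := by
  have hmc := isMC_cX hp f.mem
  have h1 : ∀ a ∈ Sx M.toCoxeterSystem hp.isCartan (ch hp) f.t, cX hp f.t a = 1 := by
    rintro a ⟨ha, ha1⟩
    rw [cX_root hp M.toCoxeterSystem f.mem ha]
    exact ha1
  have hb1 := (f.stab b).2 hb
  have hb2 := (f.stab _).2 hb1
  have hq0 : 0 < q := by
    rw [← m.hq]
    exact pow_pos hr.out.pos _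
  have h2 : ∀ v, cX hp f.t v ^ (q ^ 2 - 1) = 1 := by
    intro v
    obtain ⟨c₀, c₁, c₂, hc⟩ := hspan v
    have h3 : f.θ (f.θ v) = (c₀ • b + c₁ • f.θ b + c₂ • f.θ (f.θ b)) + v := by rw [← hc, sub_add_cancel]
    have h4 := congrArg (cX hp f.t) h3
    rw [chi_th f f.mem f.fix, chi_th f f.mem f.fix, hmc.add, hmc.add, hmc.add, hmc.zsmul, hmc.zsmul, hmc.zsmul,
      h1 _ hb, h1 _ hb1, h1 _ hb2, one_zpow, one_zpow, one_zpow, one_mul, one_mul, one_mul, ← pow_mul, ← pow_two] at h4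
    apply mul_left_cancel₀ (hmc.ne_zero v)
    rw [← pow_succ', Nat.sub_add_cancel (Nat.one_le_pow _ _ hq0), h4, mul_one]
  have h5 : f.t ^ (q ^ 2 - 1) = 1 := cX_inj hp (pow_mem f.mem _) (one_mem _) fun j => by
    rw [cX_pow hp f.mem, h2, cX_one]
  rw [f.eq, conj_pow, h5, mul_one, mul_inv_cancel]

theorem not_dvd_orderOf {b : Fin l → ℤ} (hb : b ∈ Sx M.toCoxeterSystem hp.isCartan (ch hp) f.t)
    (hspan : ∀ v, ∃ c₀ c₁ c₂ : ℤ, f.θ (f.θ v) - v = c₀ • b + c₁ • f.θ b + c₂ • f.θ (f.θ b)) {p : ℕ}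
    (hp : ¬ p ∣ q ^ 2 - 1) : ¬ p ∣ orderOf s :=
  fun h => hp (h.trans (orderOf_dvd_of_pow_eq_one (pow_sq_sub_one f hb hspan)))

end Cfsg.Agent.H385.TD
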